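/-
Induction from the point stabiliser in the split rank one set-up (Mackey formula), and the class sum formula.
-/
import Mathlib
import Cfsg.Agent.Lib.Bender.Defs
import Cfsg.Agent.Lib.PF.Sec1
import Cfsg.Agent.Lib.BG.AmbProd
import Cfsg.Agent.Lib.Char.CommCount

set_option autoImplicit false

namespace CfsgLib.Bender

open Cfsg MulAction CfsgLib.RankOne CfsgLib.PF CfsgLib.BG

variable {G : Type*} {Ω : Type*} [Group G] [MulAction G Ω] [Finite G] {a : Ω} {t : G} {Q : Subgroup G}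
  {φ ψ : G → ℂ}

theorem els_prod {α β : Type*} [Finite α] [Finite β] (A : Set α) (B : Set β) :
    els (A ×ˢ B) = els A ×ˢ els B := by
  ext x; simp

/-- `∑_{x, y} χ(x u x⁻¹ y v y⁻¹)` -/
theorem sum_sum_conj_mul {χ : G → ℂ} (hχ : IsIrr ⊤ χ) (u v : G) :
    ∑ x ∈ els ((⊤ : Subgroup G) : Set G), ∑ y ∈ els ((⊤ : Subgroup G) : Set G),
      χ (x * u * x⁻¹ * (y * v * y⁻¹)) = (Nat.card G : ℂ) ^ 2 * (χ u * χ v / χ 1) := by
  have := Fintype.ofFinite G
  rw [els_top, Finset.sum_comm]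
  simp_rw [CfsgLib.Char.sum_irr_conj_mul (isIrr_top.1 hχ), CF_conj hχ.mem_CF v (Subgroup.mem_top _)]
  rw [Finset.sum_const, Finset.card_univ, ← Nat.card_eq_fintype_card, nsmul_eq_mul]
  ring

/-- a class function vanishing on all products of a conjugate of `u` and a conjugate of `v` -/
theorem sum_dot_mul_div_eq_zero (hψ : ψ ∈ CF (⊤ : Subgroup G)) {u v : G}
    (h : ∀ x y : G, ψ (x * u * x⁻¹ * (y * v * y⁻¹)) = 0) :
    ∑ χ ∈ Irr ⊤, dot ⊤ ψ χ * (χ u * χ v / χ 1) = 0 := by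
  have h1 : ∑ x ∈ els ((⊤ : Subgroup G) : Set G), ∑ y ∈ els ((⊤ : Subgroup G) : Set G),
      ψ (x * u * x⁻¹ * (y * v * y⁻¹)) = 0 := by simp [h]
  simp_rw [CF_apply_expand hψ (_ * _ * _ * _)] at h1
  rw [Finset.sum_congr rfl fun x _ => Finset.sum_comm, Finset.sum_comm] at h1
  have h2 : (Nat.card G : ℂ) ^ 2 ≠ 0 := pow_ne_zero _ (Nat.cast_ne_zero.2 Nat.card_pos.ne')
  refine (mul_eq_zero.1 ?_).resolve_left h2
  rw [← h1, Finset.mul_sum]
  refine Finset.sum_congr rfl fun χ hχ => ?_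
  simp_rw [← Finset.mul_sum]
  rw [sum_sum_conj_mul (mem_Irr.1 hχ)]
  ring

variable (hS : IsRankOneSetup G Ω a t Q)
include hS

omit [Finite G] in
theorem Q_normal : Q ⊲ stabilizer G a :=
  ⟨hS.le, le_norm_of_cj_le fun g hg => cj_le_iff.2 fun x hx => hS.conj_mem g hg x hx⟩

omit [Finite G] in
theorem sdprod_QD : SDProd Q (Dg a t) (stabilizer G a) :=
  sdprod_intro hS.sup_eq (inf_le_left.trans (Q_normal hS).norm)
    (eq_bot_iff.2 ((inf_le_inf_left _ inf_le_right).trans hS.inf_eq_bot.le))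

omit [Finite G] in
theorem t_norm_D : t ∈ 𝒩(Dg a t) := by
  rw [Subgroup.mem_normalizer_iff]
  refine fun d => ⟨t_conj_mem_D hS, fun h => ?_⟩
  have := t_conj_mem_D hS h
  rwa [t_inv hS, show t * (t * d * t) * t = (t * t) * d * (t * t) by group, hS.mul_self, one_mul,
    mul_one] at this

omit [Finite G] in
theorem mem_stab_of_conj_mem_stab {z x : G} (hz : z ∈ Q) (hz1 : z ≠ 1)
    (h : x * z * x⁻¹ ∈ stabilizer G a) : x ∈ stabilizer G a := by
  have h1 : z • x⁻¹ • a = x⁻¹ • a := by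
    rw [mem_stabilizer_iff, mul_smul, mul_smul, smul_eq_iff_eq_inv_smul] at h
    exact h
  exact (Subgroup.inv_mem_iff _).1 (eq_a_of_fix hS hz hz1 h1)

theorem Ind_apply_Q (hψ : ψ ∈ CF (stabilizer G a)) {z : G} (hz : z ∈ Q) (hz1 : z ≠ 1) :
    Ind ⊤ (stabilizer G a) ψ z = ψ z := by
  rw [Ind_apply_CF hψ.1 (Subgroup.mem_top z), ← sum_els_subset (A := (stabilizer G a : Set G))
    (fun _ _ => Subgroup.mem_top _) fun x _ hx =>
      hψ.1 _ fun h => hx (mem_stab_of_conj_mem_stab hS hz hz1 h),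
    sum_els_congr (g := fun _ => ψ z) fun x hx => CF_conj hψ z hx, sum_els_const, ncard_subgroup,
    nsmul_eq_mul, inv_mul_cancel_left₀ (cardC_ne_zero _)]

theorem relIndex_stab_top : (stabilizer G a).relIndex ⊤ = Nat.card Q + 1 := by
  rw [Subgroup.relIndex_top_right, index_stabilizer_eq hS]

/-- Mackey's formula -/
theorem Ind_apply_stab (hψ : ψ ∈ CF (stabilizer G a)) {h : G} (hh : h ∈ stabilizer G a) :
    Ind ⊤ (stabilizer G a) ψ h = ψ h + Ind (stabilizer G a) (Dg a t) (cfJ t ψ) h := by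
  have hb : Set.BijOn (fun p : G × G => p.1 * t * p.2) ((Q : Set G) ×ˢ (stabilizer G a : Set G))
      (((⊤ : Subgroup G) : Set G) \ stabilizer G a) := by
    refine ⟨fun p hp => ⟨trivial, fun h1 => hS.not_mem ?_⟩, fun p hp p' hp' he => ?_, fun x hx => ?_⟩
    · exact (Subgroup.mul_mem_cancel_left _ (hS.le hp.1)).1
        ((Subgroup.mul_mem_cancel_right _ hp.2).1 h1)
    · have h1 := congrArg Inv.inv he
      simp only [mul_inv_rev, t_inv hS, ← mul_assoc] at h1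
      obtain ⟨h2, h3⟩ := canonical_unique hS (Subgroup.inv_mem _ hp.2) (Q.inv_mem hp.1)
        (Subgroup.inv_mem _ hp'.2) (Q.inv_mem hp'.1) h1
      exact Prod.ext (inv_injective h3) (inv_injective h2)
    · obtain ⟨y, hy, z, hz, he⟩ := exists_canonical hS (g := x⁻¹) fun h1 =>
        hx.2 ((Subgroup.inv_mem_iff _).1 h1)
      refine ⟨(z⁻¹, y⁻¹), ⟨Q.inv_mem hz, Subgroup.inv_mem _ hy⟩, ?_⟩
      rw [← inv_inv x, he]
      simp only [mul_inv_rev, t_inv hS, mul_assoc]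
  have hD : Res (Dg a t) (cfJ t ψ) ∈ CF (Dg a t) := by
    rw [← cfJ_Res (t_norm_D hS)]
    exact cfJ_mem_CF (t_norm_D hS) (Res_mem_CF inf_le_left hψ)
  have h1 : ∀ g ∈ stabilizer G a, ψ (t⁻¹ * g * t) = Res (Dg a t) (cfJ t ψ) g := fun g hg => by
    by_cases hgD : g ∈ Dg a t
    · rw [Res_apply_of_mem _ hgD, cfJ_apply, t_inv hS]
    · rw [Res_apply_of_not_mem _ hgD]
      refine hψ.1 _ fun h2 => hgD ⟨hg, ?_⟩
      rw [mem_stabilizer_iff, mul_smul, mul_smul, inv_smul_eq_iff] at h2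
      exact h2
  rw [Ind_apply_of_mem _ _ (Subgroup.mem_top h), Res_CF hψ,
    ← sum_els_diff_add (A := (stabilizer G a : Set G)) (fun _ _ => Subgroup.mem_top _),
    sum_els_congr (A := (stabilizer G a : Set G)) (g := fun _ => ψ h) fun x hx => CF_conj' hψ h hx,
    ← sum_els_bij _ hb, els_prod, Finset.sum_product, mul_add, sum_els_const, ncard_subgroup,
    nsmul_eq_mul, inv_mul_cancel_left₀ (cardC_ne_zero _), Ind_apply_of_mem _ _ hh,
    sum_els_sdprod (sdprod_QD hS), add_comm, Finset.mul_sum, Finset.mul_sum]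
  congr 1
  refine sum_els_congr fun y hy => ?_
  have h2 : y⁻¹ * h * y ∈ stabilizer G a :=
    Subgroup.mul_mem _ (Subgroup.mul_mem _ (Subgroup.inv_mem _ (hS.le hy)) hh) (hS.le hy)
  rw [sum_els_congr (g := fun _ => Res (Dg a t) (cfJ t ψ) (y⁻¹ * h * y)) fun x hx => by
      rw [← h1 _ h2, ← CF_conj' hψ (t⁻¹ * _ * t) hx]; congr 1; group,
    sum_els_congr (A := (Dg a t : Set G)) (g := fun _ => Res (Dg a t) (cfJ t ψ) (y⁻¹ * h * y))
      fun x hx => by rw [← CF_conj' hD (y⁻¹ * h * y) hx]; congr 1; group,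
    sum_els_const, sum_els_const, ncard_subgroup, ncard_subgroup, nsmul_eq_mul, nsmul_eq_mul,
    inv_mul_cancel_left₀ (cardC_ne_zero _), inv_mul_cancel_left₀ (cardC_ne_zero _)]

theorem dot_Ind_Ind (hφ : φ ∈ CF (stabilizer G a)) (hψ : ψ ∈ CF (stabilizer G a)) :
    dot ⊤ (Ind ⊤ (stabilizer G a) φ) (Ind ⊤ (stabilizer G a) ψ) =
      dot (stabilizer G a) φ ψ + dot (Dg a t) φ (cfJ t ψ) := by
  rw [dot_Ind_left le_top φ (Ind_mem_CF _ _ _),
    dot_congr (φ' := φ) (ψ' := ψ + Ind (stabilizer G a) (Dg a t) (cfJ t ψ)) (fun _ _ => rfl)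
      fun x hx => Ind_apply_stab hS hψ hx, dot_add_right, dot_Ind_right inf_le_left _ hφ]

end CfsgLib.Bender
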